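import Cfsg.Agent.Lib.KnownSimple.MultM.G23L.Def0

/-!
# A coset enumeration: the facts
-/

set_option autoImplicit false

namespace Cfsg.Agent.Lib.KnownSimple.MultM.G23L

open Cfsg Cfsg.Spor Cfsg.Agent.Lib.Compute Cfsg.Agent.Lib.KnownSimple.PE Cfsg.Agent.Lib.KnownSimple.Leech
open Cfsg.Agent.Lib.KnownSimple Cfsg.Agent.Lib.KnownSimple.AutRigid Cfsg.Agent.Lib.KnownSimple.Pres

set_option maxHeartbeats 0 in
set_option maxRecDepth 100000 in
theorem fc0_0 : chunk (padB K0 (Cert.factOK C0)) 2584 0 = true := by decide +kernel
set_option maxHeartbeats 0 in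
set_option maxRecDepth 100000 in
theorem fc0_1 : chunk (padB K0 (Cert.factOK C0)) 2584 1 = true := by decide +kernel
set_option maxHeartbeats 0 in
set_option maxRecDepth 100000 in
theorem fc0_2 : chunk (padB K0 (Cert.factOK C0)) 2584 2 = true := by decide +kernel
set_option maxHeartbeats 0 in
set_option maxRecDepth 100000 in
theorem fc0_3 : chunk (padB K0 (Cert.factOK C0)) 2584 3 = true := by decide +kernel
set_option maxHeartbeats 0 in
set_option maxRecDepth 100000 in
theorem fc0_4 : chunk (padB K0 (Cert.factOK C0)) 2584 4 = true := by decide +kernel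
set_option maxHeartbeats 0 in
set_option maxRecDepth 100000 in
theorem fc0_5 : chunk (padB K0 (Cert.factOK C0)) 2584 5 = true := by decide +kernel
set_option maxHeartbeats 0 in
set_option maxRecDepth 100000 in
theorem fc0_6 : chunk (padB K0 (Cert.factOK C0)) 2584 6 = true := by decide +kernel
set_option maxHeartbeats 0 in
set_option maxRecDepth 100000 in
theorem fc0_7 : chunk (padB K0 (Cert.factOK C0)) 2584 7 = true := by decide +kernel
set_option maxHeartbeats 0 in
set_option maxRecDepth 100000 in
theorem fc0_8 : chunk (padB K0 (Cert.factOK C0)) 2584 8 = true := by decide +kernel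
set_option maxHeartbeats 0 in
set_option maxRecDepth 100000 in
theorem fc0_9 : chunk (padB K0 (Cert.factOK C0)) 2584 9 = true := by decide +kernel
set_option maxHeartbeats 0 in
set_option maxRecDepth 100000 in
theorem fc0_10 : chunk (padB K0 (Cert.factOK C0)) 2584 10 = true := by decide +kernel
set_option maxHeartbeats 0 in
set_option maxRecDepth 100000 in
theorem fc0_11 : chunk (padB K0 (Cert.factOK C0)) 2584 11 = true := by decide +kernel
set_option maxHeartbeats 0 in
set_option maxRecDepth 100000 in
theorem fc0_12 : chunk (padB K0 (Cert.factOK C0)) 2584 12 = true := by decide +kernel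

end Cfsg.Agent.Lib.KnownSimple.MultM.G23L
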