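import Cfsg.Agent.Lib.KnownSimple.MultC.CongrU
import Cfsg.Agent.Lib.KnownSimple.MultM.L33G.Main
import Cfsg.Agent.Lib.KnownSimple.MultM.G23L.CertAll
import Cfsg.Agent.Lib.KnownSimple.MultM.G23L.Low

/-!
# The Schur multiplier
-/

set_option autoImplicit false

namespace Cfsg.Agent.Lib.KnownSimple.MultM.G23L

open Cfsg Cfsg.Spor Cfsg.Agent.Lib.Compute Cfsg.Agent.Lib.KnownSimple.PE Cfsg.Agent.Lib.KnownSimple.Leech
open Cfsg.Agent.Lib.KnownSimple Cfsg.Agent.Lib.KnownSimple.AutRigid Cfsg.Agent.Lib.KnownSimple.Pres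
open Cfsg.Agent.Lib.KnownSimple.MultC


theorem hMF : MF (stabOf ρ h0) :=
  MF_stab_of_letters (k := 5) C hρ (by decide) htr (by decide +kernel) (by rw [cardLS, card_P]; rfl)
    (MF_LS hPU hfU finj Cfsg.Agent.Lib.KnownSimple.MultM.L33G.mfP)

theorem upperP (Γ : Type) [Group Γ] [Finite Γ] (σ : Γ →* P) (hσ : IsStemExtension σ) :
    ∃ π : Multiplicative (ZMod 3) →* σ.ker, Function.Surjective π :=
  upperV C hP A B hcomm hρ hMF hrr.1 hrr.2 hRLe hokR hloopR (Q := 37) (P := 70) (Qr := 31) (by decide +kernel) (by decide +kernel)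
    hTree hE hF (qs := 30) (m := 3) (by decide +kernel) hcert Γ σ hσ

theorem multP : HasCyclicSchurMultiplier P 3 := hasCyclic_of lowerP upperP

theorem mult {F : Type*} [Field F] [Fintype F] (hF : Fintype.card F = 3) :
    HasCyclicSchurMultiplier ↥(Cfsg.Lie.chevG2.group F) 3 := by
  obtain ⟨e2⟩ := Cfsg.Agent.Lib.Known3.G23.exists_iso hF
  exact hasSchur_congrU e2.symm (hasSchur_congr e multP)

end Cfsg.Agent.Lib.KnownSimple.MultM.G23L
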