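import Cfsg.Agent.Lib.KnownSimple.MultM.G23L.ValT

/-!
# The table of values: the tests
-/

set_option autoImplicit false

namespace Cfsg.Agent.Lib.KnownSimple.MultM.G23L

open Cfsg Cfsg.Spor Cfsg.Agent.Lib.Compute Cfsg.Agent.Lib.KnownSimple.PE Cfsg.Agent.Lib.KnownSimple.Leech
open Cfsg.Agent.Lib.KnownSimple Cfsg.Agent.Lib.KnownSimple.AutRigid Cfsg.Agent.Lib.KnownSimple.Pres
open Cfsg.Agent.Lib.KnownSimple.MultC


set_option maxHeartbeats 0 in
set_option maxRecDepth 100000 in
theorem ve0 : chunk (padB 4536 fe) 1024 0 = true := by decide +kernel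
set_option maxHeartbeats 0 in
set_option maxRecDepth 100000 in
theorem ve1 : chunk (padB 4536 fe) 1024 1 = true := by decide +kernel
set_option maxHeartbeats 0 in
set_option maxRecDepth 100000 in
theorem ve2 : chunk (padB 4536 fe) 1024 2 = true := by decide +kernel
set_option maxHeartbeats 0 in
set_option maxRecDepth 100000 in
theorem ve3 : chunk (padB 4536 fe) 1024 3 = true := by decide +kernel
set_option maxHeartbeats 0 in
set_option maxRecDepth 100000 in
theorem ve4 : chunk (padB 4536 fe) 1024 4 = true := by decide +kernel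

end Cfsg.Agent.Lib.KnownSimple.MultM.G23L
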